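import Cfsg.Agent.H33.Wielandt.Local
import Cfsg.Agent.H20.Sylow
import Mathlib.GroupTheory.GroupAction.Quotient

/-! There is no simple product of coprime nilpotent groups. -/

open scoped Pointwise

namespace Cfsg.Agent.H33.CoprimeSimpleProduct

variable {G : Type*} [Group G] [Finite G] {A B : Subgroup G}

/-- Every `p`-subgroup centralising a prime-order element `x ∈ A` lies in the `C(x)`-conjugate of
`A`. -/
theorem exists_conj_le (h : CoprimeSimpleProduct A B) {x : G} {p : ℕ} [hp : Fact p.Prime]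
    (hxA : x ∈ A) (hxo : orderOf x = p) {P : Subgroup G} (hP : IsPGroup p P)
    (hPH : P ≤ Subgroup.centralizer ({x} : Set G)) :
    ∃ n ∈ Subgroup.centralizer ({x} : Set G), P ≤ MulAut.conj n • pPart p A := by
  have hpA : p ∣ Nat.card A := hxo ▸ Subgroup.orderOf_dvd_natCard A hxA
  have hX : IsPGroup p (Subgroup.zpowers x) := IsPGroup.of_card (n := 1)
    (by rw [Nat.card_zpowers, hxo, pow_one])
  have hPN : P ≤ Subgroup.normalizer (Subgroup.zpowers x : Set G) := by
    refine le_trans ?_ (Subgroup.centralizer_le_normalizer _)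
    rw [Subgroup.le_centralizer_iff, Subgroup.zpowers_le]
    exact Subgroup.mem_centralizer_iff.2 fun q hq =>
      Subgroup.mem_centralizer_singleton_iff.1 (hPH hq)
  obtain ⟨S, hS⟩ := exists_sylow_eq_pPart (p := p) h.nilA h.hall hpA
  obtain ⟨T, hT⟩ := (hP.to_sup_of_normal_right' hX hPN).exists_le_sylow
  obtain ⟨g, rfl⟩ := MulAction.exists_smul_eq G S T
  rw [Sylow.coe_subgroup_smul, hS] at hT
  have hxg : g⁻¹ * x * g ∈ A := pPart_le p A
    (H19.mem_conj_smul.1 (hT (Subgroup.mem_sup_right (Subgroup.mem_zpowers x))))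
  obtain ⟨m, hm, hme⟩ := h.exists_conj_normalizer (k := 1) (g := g⁻¹) hxA (by rwa [inv_inv])
    (by rw [hxo, pow_one])
  rw [inv_inv] at hme
  refine ⟨g * m, Subgroup.mem_centralizer_singleton_iff.2 ?_, fun q hq => ?_⟩
  · calc g * m * x = g * (m * x * m⁻¹) * m := by group
      _ = g * (g⁻¹ * x * g) * m := by rw [hme]
      _ = x * (g * m) := by group
  · have h1 := H19.mem_conj_smul.1 (hT (Subgroup.mem_sup_left hq))
    rw [H19.mem_conj_smul]
    have h2 := (Subgroup.mem_normalizer_iff''.1 (normalizer_le_normalizer_pPart p A hm) _).1 h1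
    simpa [mul_assoc] using h2

/-- The `A`-part of `C(x)` contains a Sylow `r`-subgroup of `C(x)` for every prime `r` of `A`. -/
theorem not_dvd_index_inf (h : CoprimeSimpleProduct A B) {x : G} {p : ℕ} [hp : Fact p.Prime]
    (hxA : x ∈ A) (hxo : orderOf x = p) {r : ℕ} [hr : Fact r.Prime] (hrA : r ∣ Nat.card A) :
    ¬ r ∣ ((A ⊓ Subgroup.centralizer ({x} : Set G)).subgroupOf
      (Subgroup.centralizer ({x} : Set G))).index := by
  set H := Subgroup.centralizer ({x} : Set G)
  intro hd
  obtain ⟨S⟩ := (inferInstance : Nonempty (Sylow r H))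
  have hnd : ∀ T : Sylow r H, ¬ (T : Subgroup H) ≤ (A ⊓ H).subgroupOf H := fun T hT =>
    T.not_dvd_index (hd.trans (Subgroup.index_dvd_of_le hT))
  by_cases hrp : r = p
  · subst hrp
    obtain ⟨n, hn, hle⟩ := h.exists_conj_le hxA hxo (S.2.map H.subtype) (Subgroup.map_subtype_le _)
    refine hnd ((⟨n, hn⟩ : H)⁻¹ • S) fun y hy => ?_
    rw [Sylow.coe_subgroup_smul, H19.mem_conj_smul] at hy
    have h1 := H19.mem_conj_smul.1 (hle ⟨_, hy, rfl⟩)
    refine ⟨pPart_le r A ?_, y.2⟩
    simpa [mul_assoc] using h1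
  · obtain ⟨R, hR⟩ := exists_sylow_eq_pPart (p := r) h.nilA h.hall hrA
    have hRH : (R : Subgroup G) ≤ H := fun y hy => by
      rw [hR] at hy
      obtain ⟨l, hl⟩ := IsPGroup.iff_orderOf.1 (isPGroup_pPart (p := r) (A := A)) ⟨y, hy⟩
      rw [Subgroup.orderOf_mk] at hl
      exact Subgroup.mem_centralizer_singleton_iff.2
        (commute_parts (mem_pPart (p := p) h.nilA hxA (k := 1) (by rw [hxo, pow_one]))
          (mem_pCoPart_of_primePow h.nilA (pPart_le r A hy) hr.out hrp hl)).symm.eq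
    refine hnd (R.subtype hRH) fun y hy => ⟨pPart_le r A ?_, y.2⟩
    rw [Sylow.coe_subtype] at hy
    exact hR ▸ hy

/-- A prime-order element of `A` has its centraliser inside `N(A)`. -/
theorem centralizer_le_normalizer_left (h : CoprimeSimpleProduct A B) {x : G} {p : ℕ}
    [hp : Fact p.Prime] (hxA : x ∈ A) (hxo : orderOf x = p) :
    Subgroup.centralizer ({x} : Set G) ≤ Subgroup.normalizer (A : Set G) := by
  set H := Subgroup.centralizer ({x} : Set G)
  set M := Subgroup.normalizer (A : Set G) with hMdef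
  have hAM : A ≤ M := Subgroup.le_normalizer
  haveI hnA := h.nilA
  have hx1 : x ≠ 1 := fun e => hp.out.ne_one (by rw [← hxo, e, orderOf_one])
  have hpA : p ∣ Nat.card A := hxo ▸ Subgroup.orderOf_dvd_natCard A hxA
  by_cases hb : ∃ q : ℕ, q.Prime ∧ q ∣ Nat.card B ∧ q ∣ Nat.card (H ⊓ M : Subgroup G)
  · -- some `π'`-element of `C(x)` normalises `A`
    obtain ⟨q, hq, hqB, hqd⟩ := hb
    haveI : Fact q.Prime := ⟨hq⟩
    obtain ⟨⟨b, hbm⟩, hbo⟩ := exists_prime_orderOf_dvd_card' q hqd
    rw [Subgroup.orderOf_mk] at hbo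
    have hqA : ¬ q ∣ Nat.card A := fun hd =>
      hq.not_dvd_one ((h.cop.coprime_dvd_left hd).eq_one_of_dvd hqB ▸ dvd_rfl)
    obtain ⟨P⟩ := (inferInstance : Nonempty (Sylow q (B.subgroupOf M)))
    have hidx : ¬ q ∣ (B.subgroupOf M).index := fun hd => hqA <| by
      rw [index_eq_relIndex (A := A.subgroupOf M) (B := B.subgroupOf M) (prod_subgroupOf fun g hg => by
        obtain ⟨a, ha, c, hc, e⟩ := prod_of_left_le h.prod hAM g hg
        exact ⟨a, ⟨ha, hAM ha⟩, c, hc, e⟩)] at hd
      exact hd.trans ((Subgroup.relIndex_dvd_card _ _).trans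
        (Subgroup.card_comap_dvd_of_injective A M.subtype M.subtype_injective))
    obtain ⟨T, hT⟩ := (P.2.map (B.subgroupOf M).subtype).exists_le_sylow
    have hTle : (T : Subgroup M) ≤ B.subgroupOf M := by
      refine (Subgroup.eq_of_le_of_card_ge hT (le_of_eq ?_)).ge.trans (Subgroup.map_subtype_le _)
      have he : (Nat.card M).factorization q = (Nat.card (B.subgroupOf M)).factorization q := by
        rw [← (B.subgroupOf M).card_mul_index,
          Nat.factorization_mul Nat.card_pos.ne' Subgroup.index_ne_zero_of_finite, Finsupp.add_apply,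
          Nat.factorization_eq_zero_of_not_dvd hidx, add_zero]
      rw [T.card_eq_multiplicity, Subgroup.card_subtype, P.card_eq_multiplicity, he]
    obtain ⟨S, hS⟩ := (IsPGroup.of_card (n := 1)
      (show Nat.card (Subgroup.zpowers (⟨b, hbm.2⟩ : M)) = q ^ 1 by
        rw [Nat.card_zpowers, Subgroup.orderOf_mk, hbo, pow_one])).exists_le_sylow
    obtain ⟨m, rfl⟩ := MulAction.exists_smul_eq M T S
    have hmb : (m : G)⁻¹ * b * m ∈ B := by
      have := hS (Subgroup.mem_zpowers _)
      rw [Sylow.coe_subgroup_smul, H19.mem_conj_smul] at this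
      exact hTle this
    have hbM : (m : G)⁻¹ * b * m ∈ M := mul_mem (mul_mem (inv_mem m.2) hbm.2) m.2
    have hbo' : orderOf ((m : G)⁻¹ * b * m) = q := by
      have := orderOf_injective (MulAut.conj (m : G)⁻¹).toMonoidHom (MulEquiv.injective _) b
      simpa [hbo] using this
    have hcle := h.symm.centralizer_le_of_mem_inf hmb hbM hbo'
    have hx'A : (m : G)⁻¹ * x * m ∈ A := (Subgroup.mem_normalizer_iff''.1 m.2 x).1 hxA
    have hxb : b * x = x * b := Subgroup.mem_centralizer_singleton_iff.1 hbm.1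
    have hcomm : ((m : G)⁻¹ * x * m) * ((m : G)⁻¹ * b * m) =
        ((m : G)⁻¹ * b * m) * ((m : G)⁻¹ * x * m) := by
      have := congrArg (fun z => (m : G)⁻¹ * z * m) hxb.symm
      simpa [mul_assoc] using this
    have hxo' : orderOf ((m : G)⁻¹ * x * m) = p := by
      have := orderOf_injective (MulAut.conj (m : G)⁻¹).toMonoidHom (MulEquiv.injective _) x
      simpa [hxo] using this
    have := h.centralizer_le_of_mem_inf hx'A
      (hcle (Subgroup.mem_centralizer_singleton_iff.2 hcomm)) hxo'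
    intro g hg
    have h1 : (m : G)⁻¹ * g * m ∈ M := this (Subgroup.mem_centralizer_singleton_iff.2 (by
      have := congrArg (fun z => (m : G)⁻¹ * z * m) (Subgroup.mem_centralizer_singleton_iff.1 hg)
      simpa [mul_assoc] using this))
    have := mul_mem (mul_mem m.2 h1) (inv_mem m.2)
    simpa [mul_assoc] using this
  push Not at hb
  have hHM : H ⊓ M ≤ A := fun g hg => by
    refine mem_of_primePow_parts A g (isOfFinOrder_of_finite g) fun y hy s l hs hyl => ?_
    by_cases hl : l = 0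
    · rw [hl, pow_zero, orderOf_eq_one_iff] at hyl; rw [hyl]; exact one_mem _
    haveI : Fact s.Prime := ⟨hs⟩
    have hyHM : y ∈ H ⊓ M := Subgroup.zpowers_le.2 hg hy
    have hsd : s ∣ Nat.card (H ⊓ M : Subgroup G) :=
      ((dvd_pow_self s hl).trans hyl.symm.dvd).trans (Subgroup.orderOf_dvd_natCard _ hyHM)
    have hsB : ¬ s ∣ Nat.card B := fun hd => hb s hs hd hsd
    haveI : ((A.subgroupOf M)).Normal := by
      rw [Subgroup.normal_subgroupOf_iff_le_normalizer hAM]
    have hXle : Subgroup.zpowers (⟨y, hyHM.2⟩ : M) ≤ A.subgroupOf M := by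
      refine le_of_coprime_index _ _ ?_
      rw [Nat.card_zpowers, Subgroup.orderOf_mk, hyl]
      refine Nat.Coprime.pow_left l ((hs.coprime_iff_not_dvd).2 fun hd => hsB ?_)
      exact hd.trans (h.relIndex_dvd fun g hg => by
        obtain ⟨a, ha, c, hc, e⟩ := prod_of_left_le h.prod hAM g hg
        exact ⟨a, ⟨ha, hAM ha⟩, c, hc, e⟩)
    exact hXle (Subgroup.mem_zpowers _)
  intro g hg
  by_contra hgM
  set K := A ⊓ H
  have hKH : K ≤ H := inf_le_right
  have hKn : Group.IsNilpotent K :=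
    Group.nilpotent_of_mulEquiv (Subgroup.subgroupOfEquivOfLe (inf_le_left : K ≤ A))
  -- a prime `q` of `B` divides `|C(x) : K|`
  obtain ⟨q, hq, hqd⟩ := Nat.exists_prime_and_dvd (n := (K.subgroupOf H).index) fun e => hgM
    (hAM (show g ∈ K from (Subgroup.index_eq_one.1 e).ge (Subgroup.mem_top (⟨g, hg⟩ : H))).1)
  haveI : Fact q.Prime := ⟨hq⟩
  have hqA : ¬ q ∣ Nat.card A := fun hd => h.not_dvd_index_inf hxA hxo hd hqd
  have hqB : q ∣ Nat.card B := by
    refine (hq.dvd_mul.1 ?_).resolve_left hqA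
    rw [card_prod h.prod, h.inf_eq_bot, Subgroup.card_bot, mul_one]
    exact (hqd.trans (Subgroup.index_dvd_card _)).trans H.card_subgroup_dvd_card
  -- the `p`-part of `K` has a normal complement in `C(x)`
  set Kp := pPart p K
  have hKpH : Kp ≤ H := (pPart_le p K).trans hKH
  set J := Kp.subgroupOf H
  have hJcard : Nat.card J = Nat.card Kp := Nat.card_congr (Subgroup.subgroupOfEquivOfLe hKpH).toEquiv
  haveI : Group.IsNilpotent J := Group.nilpotent_of_mulEquiv
    ((Subgroup.subgroupOfEquivOfLe (pPart_le p K)).trans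
      (Subgroup.subgroupOfEquivOfLe hKpH).symm) (_h := by haveI := hKn; infer_instance)
  have hJidx : ¬ p ∣ J.index := by
    intro hd
    have h1 : J.index = Kp.relIndex K * (K.subgroupOf H).index := by
      rw [show J.index = Kp.relIndex H from rfl, show (K.subgroupOf H).index = K.relIndex H from rfl,
        Subgroup.relIndex_mul_relIndex _ _ _ (pPart_le p K) hKH]
    rcases hp.out.dvd_mul.1 (h1 ▸ hd) with h2 | h2
    · have h3 : Kp.relIndex K = Nat.card (pCoPart p K) := by
        refine Nat.eq_of_mul_eq_mul_left (Nat.card_pos (α := Kp)) ?_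
        rw [card_parts_mul hKn, H32.card_mul_relIndex (pPart_le p K)]
      rw [h3] at h2
      exact hp.out.not_dvd_one (card_pCoPart_coprime.symm.eq_one_of_dvd h2 ▸ dvd_rfl)
    · exact h.not_dvd_index_inf hxA hxo hpA h2
  have hJhall : (Nat.card J).Coprime J.index := by
    rw [hJcard, card_pPart hKn]
    exact ((hp.out.coprime_iff_not_dvd).2 hJidx).pow_left _
  obtain ⟨r, hr, hrd⟩ := Nat.exists_prime_and_dvd (mt Subgroup.card_eq_one.1 (h.pCoPart_ne_bot p))
  haveI : Fact r.Prime := ⟨hr⟩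
  have hrp : r ≠ p := fun e => hp.out.not_dvd_one
    (card_pCoPart_coprime.symm.eq_one_of_dvd (e ▸ hrd) ▸ dvd_rfl)
  have hrA : r ∣ Nat.card A := hrd.trans (Subgroup.card_dvd_of_le (pCoPart_le p A))
  obtain ⟨R, hR⟩ := exists_sylow_eq_pPart (p := r) h.nilA h.hall hrA
  have hRcomm : ∀ a ∈ (R : Subgroup G), ∀ y ∈ A, ∀ k, orderOf y = p ^ k → a * y = y * a := by
    intro a ha y hy k hyk
    rw [hR] at ha
    obtain ⟨l, hl⟩ := IsPGroup.iff_orderOf.1 (isPGroup_pPart (p := r) (A := A)) ⟨a, ha⟩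
    rw [Subgroup.orderOf_mk] at hl
    exact (commute_parts (mem_pPart h.nilA hy hyk)
      (mem_pCoPart_of_primePow h.nilA (pPart_le r A ha) hr hrp hl)).symm.eq
  have hRH : (R : Subgroup G) ≤ H := fun a ha =>
    Subgroup.mem_centralizer_singleton_iff.2 (hRcomm a ha x hxA 1 (by rw [hxo, pow_one]))
  obtain ⟨N, hNn, hN⟩ := exists_normal_complement_of_parts J hJhall fun y hy s k hs hyk c hc => by
    obtain ⟨j, hj⟩ := IsPGroup.iff_orderOf.1 (isPGroup_pPart (p := p) (A := K)) ⟨(y : G), hy⟩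
    replace hj : orderOf (y : G) = p ^ j :=
      (Subgroup.orderOf_coe (⟨(y : G), hy⟩ : pPart p K)).trans hj
    obtain ⟨j', hj'⟩ := IsPGroup.iff_orderOf.1 (isPGroup_pPart (p := p) (A := K))
      ⟨((c * y * c⁻¹ : H) : G), hc⟩
    replace hj' : orderOf ((c * y * c⁻¹ : H) : G) = p ^ j' :=
      (Subgroup.orderOf_coe (⟨((c * y * c⁻¹ : H) : G), hc⟩ : pPart p K)).trans hj'
    obtain ⟨n, hn, hne⟩ := exists_conj_mem_of_centralizer (R.subtype hRH) (x := y) (g := c)
      (fun a ha => Subtype.ext (hRcomm a (by rwa [Sylow.coe_subtype] at ha) _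
        (pPart_le p K hy).1 j hj))
      (fun a ha => Subtype.ext (hRcomm a (by rwa [Sylow.coe_subtype] at ha) _
        (pPart_le p K hc).1 j' hj'))
    -- `n` normalises the Sylow subgroup, hence lies in `K`
    have hnA : (n : G) ∈ A := by
      refine hHM ⟨n.2, h.normalizer_pPart_le hrA ?_⟩
      rw [← hR]
      refine Subgroup.mem_normalizer_iff.2 fun a => ⟨fun ha => ?_, fun ha => ?_⟩
      · have := (Subgroup.mem_normalizer_iff.1 hn ⟨a, hRH ha⟩).1 (by rw [Sylow.coe_subtype]; exact ha)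
        rw [Sylow.coe_subtype] at this
        exact this
      · have haH : a ∈ H := by
          have := mul_mem (mul_mem (inv_mem n.2) (hRH ha)) n.2
          simpa [mul_assoc] using this
        have := (Subgroup.mem_normalizer_iff.1 hn ⟨a, haH⟩).2 (by rw [Sylow.coe_subtype]; exact ha)
        rw [Sylow.coe_subtype] at this
        exact this
    have hnK : (n : G) ∈ K := ⟨hnA, n.2⟩
    obtain ⟨u, hu, v, hv, e⟩ : ∃ u ∈ pPart p K, ∃ v ∈ pCoPart p K, (n : G) = u * v := by
      obtain ⟨u, v, hu, hv, e, ⟨i, hi⟩, hvc⟩ :=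
        H86.exists_pPart_mul_pPrimePart (n : G) (isOfFinOrder_of_finite _) hp.out
      exact ⟨u, mem_pPart hKn (Subgroup.zpowers_le.2 hnK hu) hi, v,
        mem_pCoPart hKn (Subgroup.zpowers_le.2 hnK hv) hvc, e.symm⟩
    refine ⟨⟨u, hKpH hu⟩, hu, ?_⟩
    rw [← hne]
    refine Subtype.ext ?_
    have h5 : (y : G) * v = v * y := commute_parts hy hv
    show u * y * u⁻¹ = (n : G) * y * (n : G)⁻¹
    rw [e, show u * v * (y : G) * (u * v)⁻¹ = u * (v * y) * v⁻¹ * u⁻¹ by group, ← h5]
    group
  -- a central `p`-element normalises a Sylow `q`-subgroup of the complement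
  have hNcard : Nat.card N = J.index := hN.index_eq_card.symm
  have hqN : q ∣ Nat.card N := by
    rw [hNcard]
    exact hqd.trans (Subgroup.index_dvd_of_le (Subgroup.comap_mono (pPart_le p K)))
  obtain ⟨z, k, hzA, hz1, hzk, hzc⟩ := h.exists_central hpA
  have hzH : z ∈ H := Subgroup.mem_centralizer_singleton_iff.2
    (Subgroup.mem_centralizer_singleton_iff.1 (hzc hxA)).symm
  obtain ⟨D, hDN, hzD, hDq, hDcard⟩ := H20.exists_invariant_sylow_subgroup
    (A := Subgroup.zpowers (⟨z, hzH⟩ : H)) (K := N) Subgroup.le_normalizer_of_normal (by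
      rw [Nat.card_zpowers, Subgroup.orderOf_mk, hzk, hNcard]
      exact ((hp.out.coprime_iff_not_dvd).2 hJidx).pow_left _)
    (Or.inl (Group.isSolvable_of_comm fun a b => mul_comm' a b)) q
  set D' := D.map H.subtype
  have hD0 : D' ≠ ⊥ := fun e => by
    rw [Subgroup.map_eq_bot_iff_of_injective _ H.subtype_injective] at e
    rw [e, Subgroup.card_bot] at hDcard
    exact (Nat.one_lt_pow (hq.factorization_pos_of_dvd Nat.card_pos.ne' hqN).ne' hq.one_lt).ne hDcard
  have hD1 : D' ≠ ⊤ := fun e =>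
    h.centralizer_ne_top (Set.mem_singleton x) hx1 (top_le_iff.1 (e ▸ Subgroup.map_subtype_le _))
  obtain ⟨Q, hQ⟩ := exists_sylow_eq_pPart (p := q) h.nilB h.symm.hall hqB
  obtain ⟨T, hT⟩ := (hDq.map H.subtype).exists_le_sylow
  obtain ⟨c, rfl⟩ := MulAction.exists_smul_eq G Q T
  rw [Sylow.coe_subgroup_smul, hQ] at hT
  obtain ⟨a, ha, b, hbB, e⟩ := h.prod c
  set X := Subgroup.normalizer (D' : Set G)
  refine h.no_pair (A0 := Subgroup.zpowers z) (B0 := pCoPart q B) ⟨Subgroup.zpowers_le.2 hzA, ?_,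
    by simpa using hz1, pCoPart_le q B, le_normalizer_pCoPart q B, h.symm.pCoPart_ne_bot q,
    fun et => h.normalizer_ne_top hD0 hD1 ?_⟩
  · refine le_trans ?_ (Subgroup.centralizer_le_normalizer _)
    rw [Subgroup.le_centralizer_iff, Subgroup.zpowers_le]
    exact Subgroup.mem_centralizer_iff.2 fun a ha =>
      Subgroup.mem_centralizer_singleton_iff.1 (hzc ha)
  have hzX : z ∈ X := by
    have := Subgroup.le_normalizer_map H.subtype
      (Subgroup.mem_map_of_mem H.subtype (hzD (Subgroup.mem_zpowers _)))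
    exact this
  have hBX : MulAut.conj c • pCoPart q B ≤ X := by
    refine fun y hy => Subgroup.centralizer_le_normalizer _ (Subgroup.mem_centralizer_iff.2 fun d hd => ?_)
    rw [H19.mem_conj_smul] at hy
    have h1 := H19.mem_conj_smul.1 (hT hd)
    have h2 := congrArg (fun w => c * w * c⁻¹) (commute_parts h1 hy).eq
    simpa [mul_assoc] using h2
  have hle : Subgroup.zpowers z ⊔ pCoPart q B ≤ MulAut.conj a⁻¹ • X := by
    refine sup_le ?_ fun y hy => ?_
    · rw [Subgroup.zpowers_le, H19.mem_conj_smul, inv_inv, Subgroup.mem_centralizer_singleton_iff.1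
        (hzc ha), mul_assoc, mul_inv_cancel, mul_one]
      exact hzX
    · rw [H19.mem_conj_smul, inv_inv]
      refine hBX ?_
      rw [H19.mem_conj_smul, e]
      have := (Subgroup.mem_normalizer_iff''.1 (le_normalizer_pCoPart q B hbB) y).1 hy
      simpa [mul_assoc] using this
  rw [et, top_le_iff] at hle
  refine eq_top_iff.2 fun y _ => ?_
  have := H19.mem_conj_smul.1 (hle.ge (Subgroup.mem_top (a⁻¹ * y * a)))
  simpa [mul_assoc] using this

/-- The `A`-conjugates of `N(A)` form a trivial-intersection family. -/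
theorem mem_normalizer_of_conj_mem (h : CoprimeSimpleProduct A B) {x g : G} {p : ℕ}
    [hp : Fact p.Prime] (hxA : x ∈ A) (hxo : orderOf x = p) (hgx : g * x * g⁻¹ ∈ A) :
    g ∈ Subgroup.normalizer (A : Set G) := by
  obtain ⟨n, hn, hne⟩ := h.exists_conj_normalizer (k := 1) hxA hgx (by rw [hxo, pow_one])
  have hc : n⁻¹ * g ∈ Subgroup.centralizer ({x} : Set G) := by
    rw [Subgroup.mem_centralizer_singleton_iff]
    calc n⁻¹ * g * x = n⁻¹ * (g * x * g⁻¹) * g := by group
      _ = n⁻¹ * (n * x * n⁻¹) * g := by rw [hne]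
      _ = x * (n⁻¹ * g) := by group
  simpa using mul_mem hn (h.centralizer_le_normalizer_left hxA hxo hc)

/-- An element with a power of prime order dividing `|A|` fixes exactly one coset of `N(A)`. -/
theorem card_fixedBy_eq_one (h : CoprimeSimpleProduct A B) {g : G} {p k : ℕ} [hp : Fact p.Prime]
    (hpA : p ∣ Nat.card A) (hk : orderOf (g ^ k) = p) :
    Nat.card (MulAction.fixedBy (G ⧸ Subgroup.normalizer (A : Set G)) g) = 1 := by
  set M := Subgroup.normalizer (A : Set G)
  obtain ⟨c, hc⟩ := h.exists_conj_mem hpA (x := g ^ k) (k := 1) (by rw [hk, pow_one])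
  have hco : orderOf (c⁻¹ * g ^ k * c) = p := by
    have := orderOf_injective (MulAut.conj c⁻¹).toMonoidHom (MulEquiv.injective _) (g ^ k)
    simpa [hk] using this
  have hfix : ∀ d : G, (d : G ⧸ M) ∈ MulAction.fixedBy (G ⧸ M) g ↔ d⁻¹ * g * d ∈ M := by
    intro d
    rw [MulAction.mem_fixedBy, MulAction.Quotient.smul_mk, smul_eq_mul, QuotientGroup.eq,
      ← inv_mem_iff]
    simp [mul_assoc]
  have hmem : (c : G ⧸ M) ∈ MulAction.fixedBy (G ⧸ M) g := (hfix c).2
    (h.centralizer_le_normalizer_left hc hco (Subgroup.mem_centralizer_singleton_iff.2 (by group)))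
  rw [Nat.card_eq_one_iff_unique]
  refine ⟨⟨?_⟩, ⟨⟨_, hmem⟩⟩⟩
  suffices h1 : ∀ y : MulAction.fixedBy (G ⧸ M) g, (y : G ⧸ M) = (c : G ⧸ M) from
    fun a b => Subtype.ext ((h1 a).trans (h1 b).symm)
  rintro ⟨y, hy⟩
  induction y using QuotientGroup.induction_on with
  | _ d =>
  have hdM : d⁻¹ * g ^ k * d ∈ M := by
    have := M.pow_mem ((hfix d).1 hy) k
    rwa [show (d⁻¹ * g * d) ^ k = d⁻¹ * g ^ k * d from by
      simpa using (conj_pow (a := d⁻¹) (b := g) (i := k))] at this
  have hdA : d⁻¹ * g ^ k * d ∈ A := by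
    have hdo : orderOf (d⁻¹ * g ^ k * d) = p := by
      have := orderOf_injective (MulAut.conj d⁻¹).toMonoidHom (MulEquiv.injective _) (g ^ k)
      simpa [hk] using this
    haveI : (A.subgroupOf M).Normal := by
      rw [Subgroup.normal_subgroupOf_iff_le_normalizer Subgroup.le_normalizer]
    refine (le_of_coprime_index (A.subgroupOf M) (Subgroup.zpowers (⟨_, hdM⟩ : M)) ?_)
      (Subgroup.mem_zpowers _)
    rw [Nat.card_zpowers, Subgroup.orderOf_mk, hdo]
    refine (hp.out.coprime_iff_not_dvd).2 fun hd => hp.out.not_dvd_one ?_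
    refine (h.cop.coprime_dvd_left hpA).eq_one_of_dvd (hd.trans (h.relIndex_dvd fun g hg => ?_)) ▸ dvd_rfl
    obtain ⟨a, ha, b, hb, e⟩ := prod_of_left_le h.prod Subgroup.le_normalizer g hg
    exact ⟨a, ⟨ha, Subgroup.le_normalizer ha⟩, b, hb, e⟩
  refine QuotientGroup.eq.2 ?_
  have := h.mem_normalizer_of_conj_mem hc hco (g := d⁻¹ * c) (by simpa [mul_assoc] using hdA)
  simpa using this

/-- Wielandt: a simple product of coprime nilpotent groups does not exist. -/
theorem false (h : CoprimeSimpleProduct A B) : False := by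
  classical
  cases nonempty_fintype G
  set M := Subgroup.normalizer (A : Set G)
  set L := Subgroup.normalizer (B : Set G)
  have htr : MulAction.IsPretransitive G ((G ⧸ M) × (G ⧸ L)) := by
    have hbase : ∀ y : (G ⧸ M) × (G ⧸ L), ∃ g : G, g • (((1 : G) : G ⧸ M), ((1 : G) : G ⧸ L)) = y := by
      rintro ⟨y₁, y₂⟩
      induction y₁ using QuotientGroup.induction_on with
      | _ c =>
      induction y₂ using QuotientGroup.induction_on with
      | _ d =>
      obtain ⟨a, ha, b, hb, e⟩ := h.prod (c⁻¹ * d)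
      refine ⟨c * a, Prod.ext ?_ ?_⟩
      · show ((c * a * 1 : G) : G ⧸ M) = c
        rw [mul_one, QuotientGroup.eq]
        simpa using inv_mem (Subgroup.le_normalizer ha : a ∈ M)
      · show ((c * a * 1 : G) : G ⧸ L) = d
        rw [mul_one, QuotientGroup.eq, show (c * a)⁻¹ * d = a⁻¹ * (c⁻¹ * d) by group, e,
          inv_mul_cancel_left]
        exact Subgroup.le_normalizer hb
    refine ⟨fun y y' => ?_⟩
    obtain ⟨g, rfl⟩ := hbase y
    obtain ⟨g', rfl⟩ := hbase y'
    exact ⟨g' * g⁻¹, by rw [smul_smul, inv_mul_cancel_right]⟩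
  have horb : ∀ (X : Type _) [MulAction G X] [MulAction.IsPretransitive G X] [Nonempty X] [Finite X],
      ∑ g : G, (Nat.card (MulAction.fixedBy X g) : ℤ) = Nat.card G := by
    intro X _ _ _ _
    cases nonempty_fintype X
    have h1 := MulAction.sum_card_fixedBy_eq_card_orbits_mul_card_group G X
    have h2 : Fintype.card (Quotient (MulAction.orbitRel G X)) = 1 := by
      haveI : Nonempty (Quotient (MulAction.orbitRel G X)) := Nonempty.map Quotient.mk'' ‹Nonempty X›
      refine le_antisymm (Fintype.card_le_one_iff_subsingleton.2 ?_) Fintype.card_pos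
      exact MulAction.pretransitive_iff_subsingleton_quotient G X |>.1 inferInstance
    rw [h2, one_mul] at h1
    simp only [Nat.card_eq_fintype_card]
    exact_mod_cast h1
  have hsum : ∑ g : G, ((Nat.card (MulAction.fixedBy (G ⧸ M) g) : ℤ) - 1) *
      ((Nat.card (MulAction.fixedBy (G ⧸ L) g) : ℤ) - 1) = 0 := by
    have e : ∀ g : G, Nat.card (MulAction.fixedBy ((G ⧸ M) × (G ⧸ L)) g) =
        Nat.card (MulAction.fixedBy (G ⧸ M) g) * Nat.card (MulAction.fixedBy (G ⧸ L) g) := by
      intro g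
      rw [← Nat.card_prod]
      refine Nat.card_congr ⟨fun z => (⟨z.1.1, congrArg Prod.fst z.2⟩, ⟨z.1.2, congrArg Prod.snd z.2⟩),
        fun z => ⟨(z.1.1, z.2.1), Prod.ext z.1.2 z.2.2⟩, fun z => rfl, fun z => rfl⟩
    have h3 := horb ((G ⧸ M) × (G ⧸ L))
    simp only [e, Nat.cast_mul] at h3
    simp only [sub_mul, mul_sub, mul_one, one_mul, Finset.sum_sub_distrib]
    rw [h3, horb (G ⧸ M), horb (G ⧸ L)]
    simp [Nat.card_eq_fintype_card]
  rw [Finset.sum_eq_single (1 : G) (fun g _ hg => ?_) (fun h' => absurd (Finset.mem_univ _) h')] at hsum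
  · have hfull : ∀ H : Subgroup G, Nat.card (MulAction.fixedBy (G ⧸ H) (1 : G)) = H.index := fun H => by
      rw [Subgroup.index_eq_card]
      exact Nat.card_congr (Equiv.subtypeUnivEquiv fun y => one_smul G y)
    rw [hfull, hfull] at hsum
    have h1 : 1 < M.index := Subgroup.one_lt_index_of_ne_top h.normalizer_self_ne_top
    have h2 : 1 < L.index := Subgroup.one_lt_index_of_ne_top h.symm.normalizer_self_ne_top
    rcases mul_eq_zero.1 hsum with h' | h'
    · exact h1.ne' (by exact_mod_cast sub_eq_zero.1 h')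
    · exact h2.ne' (by exact_mod_cast sub_eq_zero.1 h')
  · obtain ⟨p, hp, hpd⟩ := Nat.exists_prime_and_dvd (mt orderOf_eq_one_iff.1 hg)
    haveI : Fact p.Prime := ⟨hp⟩
    have hpow : orderOf (g ^ (orderOf g / p)) = p := by
      rw [orderOf_pow_of_dvd (Nat.div_pos (Nat.le_of_dvd (orderOf_pos g) hpd) hp.pos).ne'
        (Nat.div_dvd_of_dvd hpd), Nat.div_div_self hpd (orderOf_pos g).ne']
    have hpG : p ∣ Nat.card A * Nat.card B := by
      rw [card_prod h.prod, h.inf_eq_bot, Subgroup.card_bot, mul_one]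
      exact hpd.trans (orderOf_dvd_natCard g)
    rcases hp.dvd_mul.1 hpG with hpA | hpB
    · rw [h.card_fixedBy_eq_one hpA hpow]; simp
    · rw [h.symm.card_fixedBy_eq_one hpB hpow]; simp

end Cfsg.Agent.H33.CoprimeSimpleProduct
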