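import Cfsg.Agent.H33.Wielandt.Pairs
import Cfsg.Agent.H33.FocalSeries

/-! Maximal subgroups and centralisers in a simple product of coprime nilpotent groups. -/

open scoped Pointwise

namespace Cfsg.Agent.H33.CoprimeSimpleProduct

variable {G : Type*} [Group G] [Finite G] {A B : Subgroup G}

/-- Each prime of `A` has a central element of that prime-power order. -/
theorem exists_central (h : CoprimeSimpleProduct A B) {r : ℕ} [hr : Fact r.Prime]
    (hrA : r ∣ Nat.card A) :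
    ∃ (z : G) (k : ℕ), z ∈ A ∧ z ≠ 1 ∧ orderOf z = r ^ k ∧
      A ≤ Subgroup.centralizer ({z} : Set G) := by
  haveI := h.nilA
  haveI := H19.pCore_normal r A
  have hne : Cfsg.pCore r A ≠ ⊥ := fun e => by
    have := card_pPart (p := r) h.nilA
    rw [pPart, e, Subgroup.map_bot, Subgroup.card_bot] at this
    exact (Nat.one_lt_pow (hr.out.factorization_pos_of_dvd Nat.card_pos.ne' hrA).ne'
      hr.out.one_lt).ne this
  obtain ⟨⟨z, hz⟩, hz1⟩ :=
    Subgroup.ne_bot_iff_exists_ne_one.1 (H19.inf_center_ne_bot (Cfsg.pCore r A) hne)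
  obtain ⟨k, hk⟩ := IsPGroup.iff_orderOf.1 (H19.pCore_isPGroup r (G := A)) ⟨z, hz.1⟩
  rw [Subgroup.orderOf_mk] at hk
  refine ⟨z, k, z.2, fun e => hz1 (Subtype.ext (Subtype.ext e)), by rw [Subgroup.orderOf_coe, hk],
    fun a ha => Subgroup.mem_centralizer_singleton_iff.2
      (congrArg Subtype.val (Subgroup.mem_center_iff.1 hz.2 ⟨a, ha⟩))⟩

/-- A proper factorised subgroup containing a nontrivial subgroup of `A` normalised by `A` has no
normal `q`-subgroup for the primes `q` of `B`. -/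
theorem pCore_eq_bot (h : CoprimeSimpleProduct A B) {M : Subgroup G} (hM : M ≠ ⊤)
    (hf : ∀ g ∈ M, ∃ a ∈ A ⊓ M, ∃ b ∈ B ⊓ M, g = a * b) {A0 : Subgroup G} (hA0 : A0 ≤ A)
    (hn : A ≤ Subgroup.normalizer (A0 : Set G)) (hne : A0 ≠ ⊥) (hle : A0 ≤ M)
    {q : ℕ} [hq : Fact q.Prime] (hqB : q ∣ Nat.card B) : Cfsg.pCore q M = ⊥ := by
  by_contra hY
  have hqA : ¬ q ∣ Nat.card A := fun hd =>
    hq.out.not_dvd_one ((h.cop.coprime_dvd_left hd).eq_one_of_dvd hqB ▸ dvd_rfl)
  have hYB : (Cfsg.pCore q M).map M.subtype ≤ pPart q B :=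
    h.symm.pCore_le_pPart (fun g hg => by
      obtain ⟨a, ha, b, hb, e⟩ := hf g⁻¹ (M.inv_mem hg)
      exact ⟨b⁻¹, inv_mem hb, a⁻¹, inv_mem ha, by rw [← mul_inv_rev, ← e, inv_inv]⟩) hqA
  set Y := (Cfsg.pCore q M).map M.subtype
  haveI := H19.pCore_normal q M
  have hMN : M ≤ Subgroup.normalizer (Y : Set G) :=
    (Subgroup.normal_subgroupOf_iff_le_normalizer (Subgroup.map_subtype_le _)).1
      (by rw [Subgroup.subgroupOf, Subgroup.comap_map_eq_self_of_injective M.subtype_injective]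
          infer_instance)
  have hY0 : Y ≠ ⊥ := fun e =>
    hY ((Subgroup.map_eq_bot_iff_of_injective _ M.subtype_injective).1 e)
  refine h.no_pair (A0 := A0) (B0 := pCoPart q B) ⟨hA0, hn, hne, pCoPart_le q B,
    le_normalizer_pCoPart q B, h.symm.pCoPart_ne_bot q, fun e => h.normalizer_ne_top hY0
      (fun e' => hM (top_le_iff.1 (e' ▸ Subgroup.map_subtype_le _))) ?_⟩
  refine eq_top_iff.2 (e ▸ sup_le (hle.trans hMN) ?_)
  exact ((pCoPart_le_centralizer_pPart).trans (Subgroup.centralizer_le hYB)).trans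
    (Subgroup.centralizer_le_normalizer _)

/-- In a proper factorised subgroup `M` containing the centre of `A`, `A ∩ M` is normal. -/
theorem le_normalizer_inf (h : CoprimeSimpleProduct A B) {M : Subgroup G} (hM : M ≠ ⊤)
    (hf : ∀ g ∈ M, ∃ a ∈ A ⊓ M, ∃ b ∈ B ⊓ M, g = a * b)
    (hcen : ∀ z ∈ A, A ≤ Subgroup.centralizer ({z} : Set G) → z ∈ M) :
    M ≤ Subgroup.normalizer ((A ⊓ M : Subgroup G) : Set G) := by
  haveI := h.ih M hM hf
  set F := Cfsg.fittingSubgroup M
  have hFK : F ≤ A.subgroupOf M := by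
    rw [show F = Cfsg.fittingSubgroup M from rfl, H19.fitting_eq_iSup_pCore]
    refine iSup_le fun ⟨s, hs⟩ => ?_
    haveI : Fact s.Prime := ⟨hs⟩
    by_cases hb : Cfsg.pCore s M = ⊥
    · exact hb ▸ bot_le
    by_cases hsB : s ∣ Nat.card B
    · obtain ⟨p, hp, hpA⟩ := Nat.exists_prime_and_dvd (mt Subgroup.card_eq_one.1 h.ne_bot_left)
      haveI : Fact p.Prime := ⟨hp⟩
      obtain ⟨z, -, hzA, hz1, -, hzc⟩ := h.exists_central hpA
      refine absurd (h.pCore_eq_bot hM hf (A0 := Subgroup.zpowers z) (Subgroup.zpowers_le.2 hzA) ?_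
        (by simpa using hz1) (Subgroup.zpowers_le.2 (hcen z hzA hzc)) hsB) hb
      refine le_trans ?_ (Subgroup.centralizer_le_normalizer _)
      rw [Subgroup.le_centralizer_iff, Subgroup.zpowers_le]
      exact Subgroup.mem_centralizer_iff.2 fun a ha =>
        Subgroup.mem_centralizer_singleton_iff.1 (hzc ha)
    · exact Subgroup.map_le_iff_le_comap.1 (h.pCore_le_left hf hsB)
  have hKF : A.subgroupOf M ≤ F := by
    intro x hx
    refine mem_of_primePow_parts F x (isOfFinOrder_of_finite x) fun y hy s l hs hyl => ?_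
    have hyA : y ∈ A.subgroupOf M := Subgroup.zpowers_le.2 hx hy
    haveI : Fact s.Prime := ⟨hs⟩
    obtain ⟨r, hr, hrd⟩ := Nat.exists_prime_and_dvd (mt Subgroup.card_eq_one.1 (h.pCoPart_ne_bot s))
    haveI : Fact r.Prime := ⟨hr⟩
    have hrs : r ≠ s := fun e => hs.not_dvd_one
      (card_pCoPart_coprime.symm.eq_one_of_dvd (e ▸ hrd) ▸ dvd_rfl)
    have hrA : r ∣ Nat.card A := hrd.trans (Subgroup.card_dvd_of_le (pCoPart_le s A))
    have hrB : ¬ r ∣ Nat.card B := fun hd =>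
      hr.not_dvd_one ((h.cop.coprime_dvd_left hrA).eq_one_of_dvd hd ▸ dvd_rfl)
    obtain ⟨z, k, hzA, hz1, hzk, hzc⟩ := h.exists_central hrA
    have hzM := hcen z hzA hzc
    have hzX : (⟨z, hzM⟩ : M) ∈ Cfsg.pCore r M :=
      mem_pCore_of_mem_fitting (mem_fitting_of_central hFK fun k' hk' =>
        Subtype.ext (Subgroup.mem_centralizer_singleton_iff.1 (hzc hk')))
        (by rw [Subgroup.orderOf_mk]; exact hzk)
    haveI := H19.pCore_normal r M
    set C := Subgroup.centralizer (Cfsg.pCore r M : Set M)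
    haveI hCn : C.Normal := inferInstance
    have hCA : C.map M.subtype ≤ A := by
      rintro _ ⟨c, hc, rfl⟩
      refine h.centralizer_le_of_central hzA hz1 hzc (Subgroup.mem_centralizer_singleton_iff.2 ?_)
      exact (congrArg Subtype.val (Subgroup.mem_centralizer_iff.1 hc _ hzX)).symm
    have hCnil : Group.IsNilpotent C := by
      haveI := h.nilA
      have h1 : Group.IsNilpotent ((C.map M.subtype).subgroupOf A) := inferInstance
      exact Group.nilpotent_of_mulEquiv ((Subgroup.subgroupOfEquivOfLe hCA).trans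
        (Subgroup.equivMapOfInjective C M.subtype M.subtype_injective).symm)
    refine H19.le_fitting hCn hCnil (Subgroup.mem_centralizer_iff.2 fun w hw => Subtype.ext ?_)
    have hwr : (w : G) ∈ pPart r A := h.pCore_le_pPart hf hrB ⟨w, hw, rfl⟩
    exact (commute_parts hwr (mem_pCoPart_of_primePow h.nilA hyA hs hrs.symm
      (k := l) ((Subgroup.orderOf_coe y).trans hyl))).eq
  have hKn : (A.subgroupOf M).Normal := (le_antisymm hFK hKF) ▸ H19.fitting_normal M
  rw [← Subgroup.normal_subgroupOf_iff_le_normalizer inf_le_right]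
  rwa [Subgroup.inf_subgroupOf_right]

/-- `A` is normal in every proper subgroup containing it. -/
theorem le_normalizer_of_le (h : CoprimeSimpleProduct A B) {M : Subgroup G} (hM : M ≠ ⊤)
    (hA : A ≤ M) : M ≤ Subgroup.normalizer (A : Set G) := by
  have := h.le_normalizer_inf hM (fun g hg => by
    obtain ⟨a, ha, b, hb, e⟩ := prod_of_left_le h.prod hA g hg
    exact ⟨a, ⟨ha, hA ha⟩, b, hb, e⟩) fun z hz _ => hA hz
  rwa [inf_eq_left.2 hA] at this

theorem normalizer_self_ne_top (h : CoprimeSimpleProduct A B) :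
    Subgroup.normalizer (A : Set G) ≠ ⊤ :=
  h.normalizer_ne_top h.ne_bot_left h.ne_top_left

theorem normalizer_pPart_le (h : CoprimeSimpleProduct A B) {r : ℕ} [hr : Fact r.Prime]
    (hrA : r ∣ Nat.card A) :
    Subgroup.normalizer (pPart r A : Set G) ≤ Subgroup.normalizer (A : Set G) := by
  refine h.le_normalizer_of_le (h.normalizer_ne_top ?_ ?_) (le_normalizer_pPart r A)
  · intro e
    have := card_pPart (p := r) h.nilA
    rw [e, Subgroup.card_bot] at this
    exact (Nat.one_lt_pow (hr.out.factorization_pos_of_dvd Nat.card_pos.ne' hrA).ne'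
      hr.out.one_lt).ne this
  · exact fun e => h.ne_top_left (top_le_iff.1 (e ▸ pPart_le r A))

/-- The centraliser of a prime-order element of `A ∩ N(B)` normalises `A`. -/
theorem centralizer_le_of_mem_inf (h : CoprimeSimpleProduct A B) {a : G} {p : ℕ} [hp : Fact p.Prime]
    (haA : a ∈ A) (haB : a ∈ Subgroup.normalizer (B : Set G)) (ha : orderOf a = p) :
    Subgroup.centralizer ({a} : Set G) ≤ Subgroup.normalizer (A : Set G) := by
  set H := Subgroup.centralizer ({a} : Set G)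
  have ha1 : a ≠ 1 := fun e => hp.out.ne_one (by rw [← ha, e, orderOf_one])
  have hH : H ≠ ⊤ := h.centralizer_ne_top (Set.mem_singleton a) ha1
  have hf : ∀ g ∈ H, ∃ x ∈ A ⊓ H, ∃ y ∈ B ⊓ H, g = x * y := by
    intro g hg
    obtain ⟨x, hx, y, hy, rfl⟩ := h.prod g
    have hga : x * y * a = a * (x * y) := Subgroup.mem_centralizer_singleton_iff.1 hg
    have e1 : y * a * y⁻¹ * a⁻¹ = x⁻¹ * a * x * a⁻¹ := by
      have : x⁻¹ * (x * y * a) * y⁻¹ * a⁻¹ = x⁻¹ * (a * (x * y)) * y⁻¹ * a⁻¹ := by rw [hga]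
      simpa [mul_assoc] using this
    have h1 : y * a * y⁻¹ * a⁻¹ ∈ A ⊓ B := by
      refine ⟨?_, ?_⟩
      · rw [e1]
        exact A.mul_mem (A.mul_mem (A.mul_mem (A.inv_mem hx) haA) hx) (A.inv_mem haA)
      · have := B.mul_mem hy ((Subgroup.mem_normalizer_iff.1 haB y⁻¹).1 (B.inv_mem hy))
        simpa [mul_assoc] using this
    rw [h.inf_eq_bot, Subgroup.mem_bot, mul_inv_eq_one, mul_inv_eq_iff_eq_mul] at h1
    have hyH : y ∈ H := Subgroup.mem_centralizer_singleton_iff.2 h1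
    exact ⟨x, ⟨hx, (H.mul_mem_cancel_right hyH).1 hg⟩, y, ⟨hy, hyH⟩, rfl⟩
  have hn := h.le_normalizer_inf hH hf fun z _ hzc => Subgroup.mem_centralizer_singleton_iff.2
    (Subgroup.mem_centralizer_singleton_iff.1 (hzc haA)).symm
  obtain ⟨r, hr, hrd⟩ := Nat.exists_prime_and_dvd (mt Subgroup.card_eq_one.1 (h.pCoPart_ne_bot p))
  haveI : Fact r.Prime := ⟨hr⟩
  have hrp : r ≠ p := fun e => hp.out.not_dvd_one
    (card_pCoPart_coprime.symm.eq_one_of_dvd (e ▸ hrd) ▸ dvd_rfl)
  have hrA : r ∣ Nat.card A := hrd.trans (Subgroup.card_dvd_of_le (pCoPart_le p A))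
  haveI := h.nilA
  have hKn : Group.IsNilpotent (A ⊓ H : Subgroup G) :=
    Group.nilpotent_of_mulEquiv (Subgroup.subgroupOfEquivOfLe (inf_le_left : A ⊓ H ≤ A))
  have hrH : ∀ x ∈ pPart r A, x ∈ H := fun x hx => by
    obtain ⟨l, hl⟩ := IsPGroup.iff_orderOf.1 (isPGroup_pPart (p := r) (A := A)) ⟨x, hx⟩
    rw [Subgroup.orderOf_mk] at hl
    exact Subgroup.mem_centralizer_singleton_iff.2
      (commute_parts (mem_pPart (p := p) h.nilA haA (k := 1) (by rw [ha, pow_one]))
        (mem_pCoPart_of_primePow h.nilA (pPart_le r A hx) hr hrp hl)).symm.eq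
  have heq : pPart r (A ⊓ H) = pPart r A := by
    refine le_antisymm (fun x hx => ?_) fun x hx => ?_
    · obtain ⟨l, hl⟩ := IsPGroup.iff_orderOf.1 (isPGroup_pPart (p := r) (A := A ⊓ H)) ⟨x, hx⟩
      rw [Subgroup.orderOf_mk] at hl
      exact mem_pPart h.nilA (pPart_le r _ hx).1 hl
    · obtain ⟨l, hl⟩ := IsPGroup.iff_orderOf.1 (isPGroup_pPart (p := r) (A := A)) ⟨x, hx⟩
      rw [Subgroup.orderOf_mk] at hl
      exact mem_pPart hKn ⟨pPart_le r A hx, hrH x hx⟩ hl
  refine (hn.trans (normalizer_le_normalizer_pPart r _)).trans ?_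
  rw [heq]
  exact h.normalizer_pPart_le hrA

/-- Conjugate prime-power elements of `A` are conjugate in `N(A)`. -/
theorem exists_conj_normalizer (h : CoprimeSimpleProduct A B) {p k : ℕ} [hp : Fact p.Prime]
    {x g : G} (hx : x ∈ A) (hgx : g * x * g⁻¹ ∈ A) (hk : orderOf x = p ^ k) :
    ∃ n ∈ Subgroup.normalizer (A : Set G), n * x * n⁻¹ = g * x * g⁻¹ := by
  obtain ⟨r, hr, hrd⟩ := Nat.exists_prime_and_dvd (mt Subgroup.card_eq_one.1 (h.pCoPart_ne_bot p))
  haveI : Fact r.Prime := ⟨hr⟩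
  have hrp : r ≠ p := fun e => hp.out.not_dvd_one
    (card_pCoPart_coprime.symm.eq_one_of_dvd (e ▸ hrd) ▸ dvd_rfl)
  have hrA : r ∣ Nat.card A := hrd.trans (Subgroup.card_dvd_of_le (pCoPart_le p A))
  obtain ⟨S, hS⟩ := exists_sylow_eq_pPart h.nilA h.hall hrA
  have hcomm : ∀ y ∈ A, orderOf y = p ^ k → ∀ a ∈ (S : Subgroup G), a * y = y * a := by
    intro y hy hyk a ha
    rw [hS] at ha
    obtain ⟨l, hl⟩ := IsPGroup.iff_orderOf.1 (isPGroup_pPart (p := r) (A := A)) ⟨a, ha⟩
    rw [Subgroup.orderOf_mk] at hl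
    exact (commute_parts (mem_pPart h.nilA hy hyk)
      (mem_pCoPart_of_primePow h.nilA (pPart_le r A ha) hr hrp hl)).symm.eq
  have hord : orderOf (g * x * g⁻¹) = p ^ k := by
    rw [← hk]; exact orderOf_injective (MulAut.conj g).toMonoidHom (MulEquiv.injective _) x
  obtain ⟨n, hn, hne⟩ := exists_conj_mem_of_centralizer S (hcomm x hx hk) (hcomm _ hgx hord)
  exact ⟨n, h.normalizer_pPart_le hrA (hS ▸ hn), hne⟩

end Cfsg.Agent.H33.CoprimeSimpleProduct
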