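import Cfsg.Agent.H33.Wielandt.Setup

/-! In a simple product of coprime nilpotent groups no pair of normal pieces of the factors
generates a proper subgroup. -/

open scoped Pointwise

namespace Cfsg.Agent.H33

variable {G : Type*} [Group G] [Finite G]

/-- A nontrivial finite solvable group has a nontrivial `p`-core. -/
theorem exists_pCore_ne_bot [Group.IsSolvable G] [Nontrivial G] :
    ∃ p : Nat.Primes, Cfsg.pCore (p : ℕ) G ≠ ⊥ := by
  obtain ⟨N, p, hN, hN0, -, hp, hNp, -⟩ := H19.exists_normal_elementary (G := G)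
  exact ⟨⟨p, hp⟩, fun e => hN0 (le_bot_iff.1 ((H19.le_pCore hN hNp).trans e.le))⟩

namespace CoprimeSimpleProduct

variable {A B : Subgroup G}

/-- Members of a pair `(A1, B1)` of nontrivial subgroups normalised by `A`, `B` with proper join. -/
def Pair (A B A1 B1 : Subgroup G) : Prop :=
  A1 ≤ A ∧ A ≤ Subgroup.normalizer (A1 : Set G) ∧ A1 ≠ ⊥ ∧
    B1 ≤ B ∧ B ≤ Subgroup.normalizer (B1 : Set G) ∧ B1 ≠ ⊥ ∧ A1 ⊔ B1 ≠ ⊤

theorem Pair.swap {A1 B1 : Subgroup G} (hP : Pair A B A1 B1) : Pair B A B1 A1 :=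
  ⟨hP.2.2.2.1, hP.2.2.2.2.1, hP.2.2.2.2.2.1, hP.1, hP.2.1, hP.2.2.1, sup_comm A1 B1 ▸ hP.2.2.2.2.2.2⟩

/-- For a maximal pair, a `p`-core of the normaliser of the join pulls `A_{p'}` into `A1`. -/
theorem pCoPart_le_of_max (h : CoprimeSimpleProduct A B) {A1 B1 : Subgroup G}
    (hP : Pair A B A1 B1) (hmax : ∀ X, A1 ≤ X → Pair A B X B1 → X ≤ A1) {M : Subgroup G}
    (hM : M ≠ ⊤) (hf : ∀ g ∈ M, ∃ a ∈ A ⊓ M, ∃ b ∈ B ⊓ M, g = a * b) (hle : A1 ⊔ B1 ≤ M)
    {r : ℕ} [hr : Fact r.Prime] (hrA : r ∣ Nat.card A) (hne : Cfsg.pCore r M ≠ ⊥) :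
    pCoPart r A ≤ A1 := by
  have hrB : ¬ r ∣ Nat.card B := fun hd =>
    hr.out.not_dvd_one ((h.cop.coprime_dvd_left hrA).eq_one_of_dvd hd ▸ dvd_rfl)
  set X := (Cfsg.pCore r M).map M.subtype
  haveI := H19.pCore_normal r M
  have hXA : X ≤ pPart r A := h.pCore_le_pPart hf hrB
  have hX0 : X ≠ ⊥ := fun e => hne ((Subgroup.map_eq_bot_iff_of_injective _ M.subtype_injective).1 e)
  have hX1 : X ≠ ⊤ := fun e => hM (top_le_iff.1 (e ▸ Subgroup.map_subtype_le _))
  have hMN : M ≤ Subgroup.normalizer (X : Set G) :=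
    (Subgroup.normal_subgroupOf_iff_le_normalizer (Subgroup.map_subtype_le _)).1
      (by rw [Subgroup.subgroupOf, Subgroup.comap_map_eq_self_of_injective M.subtype_injective]
          infer_instance)
  have hcN : pCoPart r A ≤ Subgroup.normalizer (X : Set G) :=
    ((pCoPart_le_centralizer_pPart).trans (Subgroup.centralizer_le hXA)).trans
      (Subgroup.centralizer_le_normalizer _)
  obtain ⟨hA1, hA1n, hA10, hB1, hB1n, hB10, -⟩ := hP
  refine le_sup_right.trans (hmax (A1 ⊔ pCoPart r A) le_sup_left ⟨sup_le hA1 (pCoPart_le r A),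
    (le_inf hA1n (le_normalizer_pCoPart r A)).trans
      (Subgroup.normalizer_inf_normalizer_le_normalizer_sup _ _),
    ne_bot_of_le_ne_bot hA10 le_sup_left, hB1, hB1n, hB10, fun e => h.normalizer_ne_top hX0 hX1 ?_⟩)
  exact eq_top_iff.2 (e ▸ sup_le (sup_le ((le_sup_left.trans hle).trans hMN) hcN)
    ((le_sup_right.trans hle).trans hMN))

/-- For a maximal pair the normaliser of the join has at most one core prime from `A`. -/
theorem prime_unique_of_max (h : CoprimeSimpleProduct A B) {A1 B1 : Subgroup G}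
    (hP : Pair A B A1 B1) (hmax : ∀ X, A1 ≤ X → Pair A B X B1 → X ≤ A1) {M : Subgroup G}
    (hM : M ≠ ⊤) (hf : ∀ g ∈ M, ∃ a ∈ A ⊓ M, ∃ b ∈ B ⊓ M, g = a * b) (hle : A1 ⊔ B1 ≤ M)
    {r s : ℕ} [hr : Fact r.Prime] [hs : Fact s.Prime] (hrA : r ∣ Nat.card A) (hsA : s ∣ Nat.card A)
    (hner : Cfsg.pCore r M ≠ ⊥) (hnes : Cfsg.pCore s M ≠ ⊥) : r = s := by
  by_contra hne
  have h1 := h.pCoPart_le_of_max hP hmax hM hf hle hrA hner
  have h2 := h.pCoPart_le_of_max hP hmax hM hf hle hsA hnes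
  have h3 : pPart r A ≤ pCoPart s A := fun x hx => by
    obtain ⟨k, hk⟩ := IsPGroup.iff_orderOf.1 (isPGroup_pPart (p := r) (A := A)) ⟨x, hx⟩
    rw [Subgroup.orderOf_mk] at hk
    exact mem_pCoPart_of_primePow h.nilA (pPart_le r A hx) hr.out hne hk
  have hAM : A ≤ M := by
    rw [← pPart_sup_pCoPart (p := r) h.nilA]
    exact sup_le ((h3.trans h2).trans (le_sup_left.trans hle)) (h1.trans (le_sup_left.trans hle))
  exact hP.2.2.2.2.2.1 (h.eq_bot_of_le hM hAM hP.2.2.2.2.1 (le_sup_right.trans hle))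

/-- A maximal pair does not have all core primes in one factor. -/
theorem exists_core_right_of_max (h : CoprimeSimpleProduct A B) {A1 B1 : Subgroup G}
    (hP : Pair A B A1 B1) (hmax : ∀ X, A1 ≤ X → Pair A B X B1 → X ≤ A1) {M : Subgroup G}
    (hM : M ≠ ⊤) (hf : ∀ g ∈ M, ∃ a ∈ A ⊓ M, ∃ b ∈ B ⊓ M, g = a * b) (hle : A1 ⊔ B1 ≤ M) :
    ∃ q : Nat.Primes, (q : ℕ) ∣ Nat.card B ∧ Cfsg.pCore (q : ℕ) M ≠ ⊥ := by
  haveI := h.ih M hM hf
  haveI : Nontrivial M := (Subgroup.nontrivial_iff_ne_bot M).2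
    (ne_bot_of_le_ne_bot hP.2.2.1 (le_sup_left.trans hle))
  obtain ⟨⟨r, hr⟩, hne⟩ := exists_pCore_ne_bot (G := M)
  haveI : Fact r.Prime := ⟨hr⟩
  rcases h.dvd_or_dvd hne with hrA | hrB
  swap
  · exact ⟨⟨r, hr⟩, hrB, hne⟩
  by_contra hcon
  push Not at hcon
  have hF : Cfsg.fittingSubgroup M ≤ Cfsg.pCore r M := by
    rw [H19.fitting_eq_iSup_pCore]
    refine iSup_le fun ⟨s, hs⟩ => ?_
    haveI : Fact s.Prime := ⟨hs⟩
    by_cases hb : Cfsg.pCore s M = ⊥
    · exact hb ▸ bot_le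
    · rcases h.dvd_or_dvd hb with hsA | hsB
      · obtain rfl := h.prime_unique_of_max hP hmax hM hf hle hsA hrA hb hne
        exact le_rfl
      · exact absurd (hcon ⟨s, hs⟩ hsB) hb
  have hrB' : ¬ r ∣ Nat.card B := fun hd =>
    hr.not_dvd_one ((h.cop.coprime_dvd_left hrA).eq_one_of_dvd hd ▸ dvd_rfl)
  -- `A_{r'}` centralises the Fitting subgroup, hence is trivial
  refine h.pCoPart_ne_bot r ((Subgroup.eq_bot_iff_forall _).2 fun a ha => ?_)
  have haM : a ∈ M :=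
    le_sup_left.trans hle (h.pCoPart_le_of_max hP hmax hM hf hle hrA hne ha)
  have h1 : (⟨a, haM⟩ : M) ∈ Cfsg.pCore r M := hF (H19.centralizer_fitting_le
    (Subgroup.mem_centralizer_iff.2 fun k hk => Subtype.ext
      (commute_parts (h.pCore_le_pPart hf hrB' ⟨k, hF hk, rfl⟩) ha).eq))
  have h2 : a ∈ pPart r A ⊓ pCoPart r A := ⟨h.pCore_le_pPart hf hrB' ⟨_, h1, rfl⟩, ha⟩
  rwa [H19.inf_eq_bot_of_isPGroup_coprime isPGroup_pPart card_pCoPart_coprime,
    Subgroup.mem_bot] at h2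

/-- Wielandt: there are no pairs. -/
theorem no_pair (h : CoprimeSimpleProduct A B) {A0 B0 : Subgroup G} (hP0 : Pair A B A0 B0) :
    False := by
  obtain ⟨⟨A1, B1⟩, hP, hmax⟩ := (wellFounded_gt (α := Subgroup G × Subgroup G)).has_min
    {x | Pair A B x.1 x.2} ⟨(A0, B0), hP0⟩
  have hmaxA : ∀ X, A1 ≤ X → Pair A B X B1 → X ≤ A1 := fun X hX hPX =>
    (eq_of_le_of_not_lt hX fun hlt => hmax (X, B1) hPX (Prod.lt_iff.2 (Or.inl ⟨hlt, le_rfl⟩))).ge
  have hmaxB : ∀ Y, B1 ≤ Y → Pair B A Y A1 → Y ≤ B1 := fun Y hY hPY =>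
    (eq_of_le_of_not_lt hY fun hlt => hmax (A1, Y) hPY.swap (Prod.lt_iff.2 (Or.inr ⟨le_rfl, hlt⟩))).ge
  obtain ⟨hA1, hA1n, hA10, hB1, hB1n, hB10, hT⟩ := hP
  have hP : Pair A B A1 B1 := ⟨hA1, hA1n, hA10, hB1, hB1n, hB10, hT⟩
  set M := Subgroup.normalizer ((A1 ⊔ B1 : Subgroup G) : Set G)
  have hM : M ≠ ⊤ := h.normalizer_ne_top (ne_bot_of_le_ne_bot hA10 le_sup_left) hT
  have hf : ∀ g ∈ M, ∃ a ∈ A ⊓ M, ∃ b ∈ B ⊓ M, g = a * b := normalizer_prod h.prod hA1n hB1n
  have hf' : ∀ g ∈ M, ∃ b ∈ B ⊓ M, ∃ a ∈ A ⊓ M, g = b * a := fun g hg => by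
    obtain ⟨a, ha, b, hb, e⟩ := hf g⁻¹ (M.inv_mem hg)
    exact ⟨b⁻¹, inv_mem hb, a⁻¹, inv_mem ha, by rw [← mul_inv_rev, ← e, inv_inv]⟩
  have hle : A1 ⊔ B1 ≤ M := Subgroup.le_normalizer
  have hle' : B1 ⊔ A1 ≤ M := sup_comm B1 A1 ▸ hle
  obtain ⟨⟨q, hq⟩, hqB, hqne⟩ := h.exists_core_right_of_max hP hmaxA hM hf hle
  obtain ⟨⟨r, hr⟩, hrA, hrne⟩ := h.symm.exists_core_right_of_max hP.swap hmaxB hM hf' hle'
  haveI : Fact q.Prime := ⟨hq⟩
  haveI : Fact r.Prime := ⟨hr⟩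
  have hrB' : ¬ r ∣ Nat.card B := fun hd =>
    hr.not_dvd_one ((h.cop.coprime_dvd_left hrA).eq_one_of_dvd hd ▸ dvd_rfl)
  have hqA' : ¬ q ∣ Nat.card A := fun hd =>
    hq.not_dvd_one ((h.cop.coprime_dvd_left hd).eq_one_of_dvd hqB ▸ dvd_rfl)
  haveI := h.ih M hM hf
  set X := Cfsg.pCore r M
  set Y := Cfsg.pCore q M
  haveI hXn : X.Normal := H19.pCore_normal r M
  haveI hYn : Y.Normal := H19.pCore_normal q M
  have hF : Cfsg.fittingSubgroup M ≤ X ⊔ Y := by
    rw [H19.fitting_eq_iSup_pCore]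
    refine iSup_le fun ⟨s, hs⟩ => ?_
    haveI : Fact s.Prime := ⟨hs⟩
    by_cases hb : Cfsg.pCore s M = ⊥
    · exact hb ▸ bot_le
    · rcases h.dvd_or_dvd hb with hsA | hsB
      · obtain rfl := h.prime_unique_of_max hP hmaxA hM hf hle hsA hrA hb hrne
        exact le_sup_left
      · obtain rfl := h.symm.prime_unique_of_max hP.swap hmaxB hM hf' hle' hsB hqB hb hqne
        exact le_sup_right
  have hXA : ∀ x ∈ X, (x : G) ∈ pPart r A := fun x hx => h.pCore_le_pPart hf hrB' ⟨x, hx, rfl⟩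
  have hYB : ∀ y ∈ Y, (y : G) ∈ pPart q B := fun y hy =>
    h.symm.pCore_le_pPart hf' hqA' ⟨y, hy, rfl⟩
  have hXY : X ⊓ Y = ⊥ := by
    rw [Subgroup.eq_bot_iff_forall]
    intro x hx
    have : (x : G) ∈ A ⊓ B := ⟨pPart_le r A (hXA x hx.1), pPart_le q B (hYB x hx.2)⟩
    rw [h.inf_eq_bot, Subgroup.mem_bot] at this
    exact Subtype.ext this
  have hAr : pCoPart r A ≤ M :=
    (h.pCoPart_le_of_max hP hmaxA hM hf hle hrA hrne).trans (le_sup_left.trans hle)
  have hBq : pCoPart q B ≤ M :=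
    (h.symm.pCoPart_le_of_max hP.swap hmaxB hM hf' hle' hqB hqne).trans (le_sup_right.trans hle)
  -- the two parts commute
  have hcomm : ∀ a (ha : a ∈ pCoPart r A), ∀ b (hb : b ∈ pCoPart q B), a * b = b * a := by
    intro a ha b hb
    set a' : M := ⟨a, hAr ha⟩
    set b' : M := ⟨b, hBq hb⟩
    have haX : a' ∈ Subgroup.centralizer (X : Set M) := Subgroup.mem_centralizer_iff.2 fun x hx =>
      Subtype.ext (commute_parts (hXA x hx) ha).eq
    have hbY : b' ∈ Subgroup.centralizer (Y : Set M) := Subgroup.mem_centralizer_iff.2 fun y hy =>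
      Subtype.ext (commute_parts (hYB y hy) hb).eq
    have hYX : ∀ y ∈ Y, ∀ x ∈ X, Commute y x := fun y hy x hx =>
      (Subgroup.commute_of_normal_of_disjoint X Y hXn hYn (disjoint_iff.2 hXY) x y hx hy).symm
    set c := a'⁻¹ * b'⁻¹ * a' * b'
    have hcX : c ∈ Subgroup.centralizer (X : Set M) := by
      have := mul_mem (inv_mem haX)
        ((inferInstance : (Subgroup.centralizer (X : Set M)).Normal).conj_mem a' haX b'⁻¹)
      simpa [c, mul_assoc] using this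
    have hcY : c ∈ Subgroup.centralizer (Y : Set M) := by
      have := mul_mem ((inferInstance : (Subgroup.centralizer (Y : Set M)).Normal).conj_mem b'⁻¹
        (inv_mem hbY) a'⁻¹) hbY
      simpa [c, mul_assoc] using this
    have hXYc : X ⊔ Y ≤ Subgroup.centralizer ({c} : Set M) := sup_le
      (fun x hx => Subgroup.mem_centralizer_singleton_iff.2 (Subgroup.mem_centralizer_iff.1 hcX x hx))
      (fun y hy => Subgroup.mem_centralizer_singleton_iff.2 (Subgroup.mem_centralizer_iff.1 hcY y hy))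
    obtain ⟨x, hx, y, hy, hxy⟩ := Subgroup.mem_sup_of_normal_left.1
      (hF (mem_fitting_of_central hF fun k hk =>
        Subgroup.mem_centralizer_singleton_iff.1 (hXYc hk)))
    -- the `Y`-component vanishes
    have key1 : ∀ k : ℕ, ∃ x' ∈ X, (b'⁻¹) ^ k * a' * b' ^ k = a' * x' * y ^ k := by
      intro k
      induction k with
      | zero => exact ⟨1, one_mem _, by simp⟩
      | succ k ih =>
        obtain ⟨x', hx', e⟩ := ih
        have hx'' : b'⁻¹ * x' * b' ∈ X := by simpa using hXn.conj_mem x' hx' b'⁻¹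
        refine ⟨x * (b'⁻¹ * x' * b'), mul_mem hx hx'', ?_⟩
        have e2 : y ^ k * b' = b' * y ^ k :=
          Subgroup.mem_centralizer_iff.1 hbY _ (pow_mem hy k)
        calc (b'⁻¹) ^ (k + 1) * a' * b' ^ (k + 1)
            = b'⁻¹ * ((b'⁻¹) ^ k * a' * b' ^ k) * b' := by rw [pow_succ', pow_succ]; group
          _ = b'⁻¹ * (a' * x' * y ^ k) * b' := by rw [e]
          _ = b'⁻¹ * a' * x' * (y ^ k * b') := by group
          _ = (a' * c) * ((b'⁻¹ * x' * b') * y ^ k) := by rw [e2]; simp only [c]; group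
          _ = a' * x * (y * (b'⁻¹ * x' * b')) * y ^ k := by rw [← hxy]; group
          _ = a' * x * ((b'⁻¹ * x' * b') * y) * y ^ k := by rw [(hYX y hy _ hx'').eq]
          _ = a' * (x * (b'⁻¹ * x' * b')) * y ^ (k + 1) := by rw [pow_succ']; group
    have hy1 : y = 1 := by
      obtain ⟨x', hx', e⟩ := key1 (orderOf b')
      rw [inv_pow, pow_orderOf_eq_one, inv_one, one_mul, mul_one, mul_assoc, left_eq_mul] at e
      have h1 : y ^ orderOf b' ∈ X ⊓ Y :=
        ⟨(X.mul_mem_cancel_left hx').1 (e.symm ▸ one_mem _), pow_mem hy _⟩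
      rw [hXY, Subgroup.mem_bot] at h1
      obtain ⟨l, hl⟩ := IsPGroup.iff_orderOf.1 (H19.pCore_isPGroup q (G := M)) ⟨y, hy⟩
      rw [Subgroup.orderOf_mk] at hl
      refine orderOf_eq_one_iff.1 (Nat.eq_one_of_dvd_coprimes (Nat.Coprime.pow_left l ?_) hl.dvd
        (orderOf_dvd_of_pow_eq_one h1))
      exact (card_pCoPart_coprime.coprime_dvd_left
        ((Subgroup.orderOf_coe b').symm ▸ Subgroup.orderOf_dvd_natCard _ hb)).symm
    rw [hy1, mul_one] at hxy
    -- the `X`-component vanishes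
    have hx1 : x = 1 := by
      have hax : x * a' = a' * x := Subgroup.mem_centralizer_iff.1 haX x hx
      have key2 : ∀ k : ℕ, (a'⁻¹) ^ k * b' * a' ^ k = b' * x⁻¹ ^ k := by
        intro k
        induction k with
        | zero => simp
        | succ k ih =>
          have e2 : x⁻¹ ^ k * a' = a' * x⁻¹ ^ k :=
            Subgroup.mem_centralizer_iff.1 haX _ (pow_mem (inv_mem hx) k)
          calc (a'⁻¹) ^ (k + 1) * b' * a' ^ (k + 1)
              = a'⁻¹ * ((a'⁻¹) ^ k * b' * a' ^ k) * a' := by rw [pow_succ', pow_succ]; group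
            _ = a'⁻¹ * b' * (x⁻¹ ^ k * a') := by rw [ih]; group
            _ = (b' * c⁻¹) * x⁻¹ ^ k := by rw [e2]; simp only [c]; group
            _ = b' * x⁻¹ ^ (k + 1) := by rw [← hxy, pow_succ']; group
      have e := key2 (orderOf a')
      rw [inv_pow, pow_orderOf_eq_one, inv_one, one_mul, mul_one, left_eq_mul] at e
      obtain ⟨l, hl⟩ := IsPGroup.iff_orderOf.1 (H19.pCore_isPGroup r (G := M)) ⟨x, hx⟩
      rw [Subgroup.orderOf_mk, ← orderOf_inv] at hl
      refine inv_eq_one.1 (orderOf_eq_one_iff.1 (Nat.eq_one_of_dvd_coprimes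
        (Nat.Coprime.pow_left l ?_) hl.dvd (orderOf_dvd_of_pow_eq_one e)))
      exact (card_pCoPart_coprime.coprime_dvd_left
        ((Subgroup.orderOf_coe a').symm ▸ Subgroup.orderOf_dvd_natCard _ ha)).symm
    have hc1 : c = 1 := by rw [← hxy, hx1]
    have := congrArg (fun z : M => (b' * a' * z : M)) hc1
    simp only [c, mul_one] at this
    have e : a' * b' = b' * a' := by
      rw [← this]; group
    exact congrArg Subtype.val e
  -- hence `A_{r'}` normalises `B_{q'}`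
  have hne : pCoPart q B ≠ ⊥ := h.symm.pCoPart_ne_bot q
  refine h.pCoPart_ne_bot r (h.symm.eq_bot_of_le
    (h.normalizer_ne_top hne fun e => h.symm.ne_top_left (top_le_iff.1 (e ▸ pCoPart_le q B)))
    (le_normalizer_pCoPart q B) (le_normalizer_pCoPart r A) ?_)
  intro a ha
  refine Subgroup.centralizer_le_normalizer _ (Subgroup.mem_centralizer_iff.2 fun b hb => ?_)
  exact (hcomm a ha b hb).symm

/-- The centraliser of a nontrivial central element of `A` is inside `A`. -/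
theorem centralizer_le_of_central (h : CoprimeSimpleProduct A B) {z : G} (hz : z ∈ A) (hz1 : z ≠ 1)
    (hzA : A ≤ Subgroup.centralizer ({z} : Set G)) :
    Subgroup.centralizer ({z} : Set G) ≤ A := by
  intro g hg
  obtain ⟨a, ha, b, hb, rfl⟩ := h.prod g
  suffices b = 1 by rw [this, mul_one]; exact ha
  by_contra hb1
  have hbz : b ∈ Subgroup.centralizer ({z} : Set G) :=
    ((Subgroup.centralizer ({z} : Set G)).mul_mem_cancel_left (hzA ha)).1 hg
  obtain ⟨q, hq, hqb⟩ := Nat.exists_prime_and_dvd (mt orderOf_eq_one_iff.1 hb1)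
  haveI : Fact q.Prime := ⟨hq⟩
  set u := b ^ (orderOf b / q)
  have hu : orderOf u = q := by
    rw [orderOf_pow_of_dvd (Nat.div_pos (Nat.le_of_dvd (orderOf_pos b) hqb) hq.pos).ne'
      (Nat.div_dvd_of_dvd hqb), Nat.div_div_self hqb (orderOf_pos b).ne']
  have hu1 : u ≠ 1 := fun e => hq.ne_one (by rw [← hu, e, orderOf_one])
  have huz : u * z = z * u := Subgroup.mem_centralizer_singleton_iff.1 (pow_mem hbz _)
  have hu' : u ∈ pPart q B :=
    mem_pPart h.nilB (pow_mem hb _) (k := 1) (by rw [hu, pow_one])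
  refine h.no_pair (A0 := Subgroup.zpowers z) (B0 := pCoPart q B)
    ⟨Subgroup.zpowers_le.2 hz, ?_, by simpa using hz1, pCoPart_le q B, le_normalizer_pCoPart q B,
      h.symm.pCoPart_ne_bot q, fun e => h.centralizer_ne_top (Set.mem_singleton u) hu1 ?_⟩
  · refine le_trans ?_ (Subgroup.centralizer_le_normalizer _)
    rw [Subgroup.le_centralizer_iff, Subgroup.zpowers_le]
    exact Subgroup.mem_centralizer_iff.2 fun a ha =>
      (Subgroup.mem_centralizer_singleton_iff.1 (hzA ha))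
  · refine eq_top_iff.2 (e ▸ sup_le ?_ ?_)
    · rw [Subgroup.zpowers_le]
      exact Subgroup.mem_centralizer_singleton_iff.2 huz.symm
    · intro x hx
      exact Subgroup.mem_centralizer_singleton_iff.2 (commute_parts hu' hx).symm.eq

end CoprimeSimpleProduct

end Cfsg.Agent.H33
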