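import Cfsg.Agent.H19.Fitting
import Cfsg.Agent.H19.Misc
import Cfsg.Agent.H25.Burnside
import Cfsg.Agent.H32.Basic
import Cfsg.Agent.H33.NilpotentHall
import Cfsg.Agent.H33.SylowProduct
import Cfsg.Agent.H33.Factorized

/-! A simple product of coprime nilpotent groups: first properties (towards Wielandt's theorem). -/

open scoped Pointwise

namespace Cfsg.Agent.H33

variable {G : Type*} [Group G] [Finite G]

/-- A normal `p`-subgroup lies in every subgroup of index prime to `p`. -/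
theorem le_of_isPGroup_normal {p : ℕ} [hp : Fact p.Prime] {X : Subgroup G} [X.Normal]
    (hX : IsPGroup p X) {H : Subgroup G} (hH : ¬ p ∣ H.index) : X ≤ H := by
  rw [← Subgroup.relIndex_eq_one]
  obtain ⟨k, hk⟩ := hX.exists_card_eq
  exact Nat.eq_one_of_dvd_coprimes (((hp.out.coprime_iff_not_dvd).2 hH).pow_left k)
    (hk ▸ Subgroup.relIndex_dvd_card H X) (H32.relIndex_dvd_index' H X)

/-- In a solvable group the centre of a subgroup centralising `F(G)` lies in `F(G)`. -/
theorem mem_fitting_of_central [Group.IsSolvable G] {K : Subgroup G}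
    (hF : Cfsg.fittingSubgroup G ≤ K) {z : G} (hz : ∀ k ∈ K, k * z = z * k) :
    z ∈ Cfsg.fittingSubgroup G :=
  H19.centralizer_fitting_le (Subgroup.mem_centralizer_iff.2 fun k hk => hz k (hF hk))

/-- An element of `p`-power order of a normal nilpotent subgroup lies in the `p`-core. -/
theorem mem_pCore_of_mem_fitting {p k : ℕ} [Fact p.Prime] {x : G}
    (hx : x ∈ Cfsg.fittingSubgroup G) (hk : orderOf x = p ^ k) : x ∈ Cfsg.pCore p G := by
  haveI := H19.fitting_normal G
  haveI := H19.fitting_isNilpotent (G := G)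
  exact H19.map_pCore_le (Cfsg.fittingSubgroup G)
    ⟨⟨x, hx⟩, mem_pCore_of_nilpotent (by rw [Subgroup.orderOf_mk]; exact hk), rfl⟩

/-- A minimal counterexample to Wielandt's theorem: a simple product of coprime nilpotent
subgroups whose proper factorised subgroups are solvable. -/
structure CoprimeSimpleProduct (A B : Subgroup G) : Prop where
  simple : IsSimpleGroup G
  notPrime : ¬ (Nat.card G).Prime
  nilA : Group.IsNilpotent A
  nilB : Group.IsNilpotent B
  cop : (Nat.card A).Coprime (Nat.card B)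
  prod : ∀ g : G, ∃ a ∈ A, ∃ b ∈ B, g = a * b
  ih : ∀ M : Subgroup G, M ≠ ⊤ → (∀ g ∈ M, ∃ a ∈ A ⊓ M, ∃ b ∈ B ⊓ M, g = a * b) →
    Group.IsSolvable M

namespace CoprimeSimpleProduct

variable {A B : Subgroup G}

/-- The setup is symmetric. -/
theorem symm (h : CoprimeSimpleProduct A B) : CoprimeSimpleProduct B A := by
  refine ⟨h.simple, h.notPrime, h.nilB, h.nilA, h.cop.symm, prod_swap h.prod, fun M hM hf => ?_⟩
  refine h.ih M hM fun g hg => ?_
  obtain ⟨b, hb, a, ha, e⟩ := hf g⁻¹ (M.inv_mem hg)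
  exact ⟨a⁻¹, inv_mem ha, b⁻¹, inv_mem hb, by rw [← mul_inv_rev, ← e, inv_inv]⟩

theorem inf_eq_bot (h : CoprimeSimpleProduct A B) : A ⊓ B = ⊥ := by
  rw [← Subgroup.card_eq_one]
  exact Nat.eq_one_of_dvd_coprimes h.cop (Subgroup.card_dvd_of_le inf_le_left)
    (Subgroup.card_dvd_of_le inf_le_right)

theorem index_eq (h : CoprimeSimpleProduct A B) : A.index = Nat.card B := by
  have h1 := card_prod h.prod
  rw [h.inf_eq_bot, Subgroup.card_bot, mul_one] at h1
  refine Nat.eq_of_mul_eq_mul_left (Nat.card_pos (α := A)) ?_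
  rw [Subgroup.card_mul_index, h1]

theorem hall (h : CoprimeSimpleProduct A B) : (Nat.card A).Coprime A.index := h.index_eq ▸ h.cop

theorem eq_bot_or_top (h : CoprimeSimpleProduct A B) (N : Subgroup G) (hN : N.Normal) :
    N = ⊥ ∨ N = ⊤ :=
  haveI := h.simple
  hN.eq_bot_or_eq_top

theorem center_eq_bot (h : CoprimeSimpleProduct A B) : Subgroup.center G = ⊥ := by
  haveI := h.simple
  refine (h.eq_bot_or_top _ inferInstance).resolve_right fun e => h.notPrime ?_
  haveI : IsMulCommutative G := ⟨⟨fun a b =>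
    Subgroup.mem_center_iff.1 (e ▸ Subgroup.mem_top b) a⟩⟩
  open scoped IsMulCommutative in exact IsSimpleGroup.prime_card

theorem not_isNilpotent (h : CoprimeSimpleProduct A B) : ¬ Group.IsNilpotent G := by
  intro hn
  haveI := h.simple
  exact absurd h.center_eq_bot (Group.IsNilpotent.center_ne_bot (G := G))

theorem ne_top_left (h : CoprimeSimpleProduct A B) : A ≠ ⊤ := fun e =>
  h.not_isNilpotent (Group.isNilpotent_top.1 (e ▸ h.nilA))

theorem ne_bot_left (h : CoprimeSimpleProduct A B) : A ≠ ⊥ := fun e => by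
  refine h.symm.ne_top_left (eq_top_iff.2 fun g _ => ?_)
  obtain ⟨a, ha, b, hb, rfl⟩ := h.prod g
  rw [e, Subgroup.mem_bot] at ha
  rwa [ha, one_mul]

theorem centralizer_ne_top (h : CoprimeSimpleProduct A B) {S : Set G} {x : G} (hx : x ∈ S)
    (hx1 : x ≠ 1) : Subgroup.centralizer S ≠ ⊤ := fun e => by
  have : x ∈ Subgroup.center G := Subgroup.mem_center_iff.2 fun g =>
    (Subgroup.mem_centralizer_iff.1 (e ▸ Subgroup.mem_top g) x hx).symm
  rw [h.center_eq_bot, Subgroup.mem_bot] at this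
  exact hx1 this

theorem normalizer_ne_top (h : CoprimeSimpleProduct A B) {X : Subgroup G} (h0 : X ≠ ⊥)
    (h1 : X ≠ ⊤) : Subgroup.normalizer (X : Set G) ≠ ⊤ := fun e =>
  ((h.eq_bot_or_top X (Subgroup.normalizer_eq_top_iff.1 e)).elim h0 h1)

/-- A proper subgroup containing `A` contains no nontrivial subgroup normalised by `B`. -/
theorem eq_bot_of_le (h : CoprimeSimpleProduct A B) {M B1 : Subgroup G} (hM : M ≠ ⊤)
    (hA : A ≤ M) (hB : B ≤ Subgroup.normalizer (B1 : Set G)) (hle : B1 ≤ M) : B1 = ⊥ := by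
  have hcl : Subgroup.normalClosure (B1 : Set G) ≤ M := by
    refine (Subgroup.closure_le _).2 fun x hx => ?_
    obtain ⟨c, hc, hx⟩ := Group.mem_conjugatesOfSet_iff.1 hx
    obtain ⟨g, rfl⟩ := isConj_iff.1 hx
    obtain ⟨a, ha, b, hb, rfl⟩ := h.prod g
    have h1 := hle ((Subgroup.mem_normalizer_iff.1 (hB hb) c).1 hc)
    have h2 := mul_mem (mul_mem (hA ha) h1) (inv_mem (hA ha))
    show a * b * c * (a * b)⁻¹ ∈ M
    simpa [mul_assoc] using h2
  rcases h.eq_bot_or_top _ Subgroup.normalClosure_normal with e | e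
  · exact le_bot_iff.1 (e ▸ Subgroup.le_normalClosure)
  · exact absurd (top_le_iff.1 (e ▸ hcl)) hM

/-- By Burnside's lemma neither factor is a prime-power group. -/
theorem pCoPart_ne_bot (h : CoprimeSimpleProduct A B) (p : ℕ) [hp : Fact p.Prime] :
    pCoPart p A ≠ ⊥ := by
  intro h0
  have hA : A = pPart p A := by
    conv_lhs => rw [← pPart_sup_pCoPart (p := p) h.nilA, h0, sup_bot_eq]
  obtain ⟨k, hk⟩ := (isPGroup_pPart (p := p) (A := A)).exists_card_eq
  rw [← hA] at hk
  haveI : Nontrivial B := (Subgroup.nontrivial_iff_ne_bot B).2 h.symm.ne_bot_left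
  haveI := h.nilB
  obtain ⟨⟨z, hz⟩, hz1⟩ := Subgroup.ne_bot_iff_exists_ne_one.1 (Group.IsNilpotent.center_ne_bot (G := B))
  have hz1' : (z : G) ≠ 1 := fun e => hz1 (Subtype.ext (Subtype.ext e))
  have hle : B ≤ Subgroup.centralizer ({(z : G)} : Set G) := fun b hb =>
    Subgroup.mem_centralizer_singleton_iff.2
      (congrArg Subtype.val (Subgroup.mem_center_iff.1 hz ⟨b, hb⟩))
  obtain ⟨j, -, hj⟩ := (Nat.dvd_prime_pow hp.out).1
    (hk ▸ h.symm.index_eq ▸ Subgroup.index_dvd_of_le hle)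
  haveI := h.simple
  exact h.notPrime (H25.prime_card_of_simple_of_primePow_class hp.out hz1' hj)

/-- Every prime-power element of order dividing that of `A` is conjugate into `A`. -/
theorem exists_conj_mem (h : CoprimeSimpleProduct A B) {p k : ℕ} [hp : Fact p.Prime] {x : G}
    (hpA : p ∣ Nat.card A) (hx : orderOf x = p ^ k) : ∃ g : G, g⁻¹ * x * g ∈ A := by
  obtain ⟨P, hP⟩ := exists_sylow_eq_pPart h.nilA h.hall hpA
  obtain ⟨T, hT⟩ := (IsPGroup.of_card (n := k)
    (show Nat.card (Subgroup.zpowers x) = p ^ k by rw [Nat.card_zpowers, hx])).exists_le_sylow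
  obtain ⟨g, rfl⟩ := MulAction.exists_smul_eq G P T
  refine ⟨g, ?_⟩
  have := hT (Subgroup.mem_zpowers x)
  rw [Sylow.coe_subgroup_smul, H19.mem_conj_smul, hP] at this
  exact pPart_le p A this

/-- The index of `A ∩ M` in a factorised subgroup `M`. -/
theorem relIndex_dvd (h : CoprimeSimpleProduct A B) {M : Subgroup G}
    (hf : ∀ g ∈ M, ∃ a ∈ A ⊓ M, ∃ b ∈ B ⊓ M, g = a * b) :
    (A.subgroupOf M).index ∣ Nat.card B := by
  have := h.inf_eq_bot
  rw [index_eq_relIndex (A := B.subgroupOf M) (B := A.subgroupOf M)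
    (prod_swap (prod_subgroupOf hf))]
  refine (Subgroup.relIndex_dvd_card _ _).trans ?_
  exact Subgroup.card_comap_dvd_of_injective B M.subtype M.subtype_injective

/-- Prime-power normal subgroups of a factorised subgroup for primes of `A` lie in `A`. -/
theorem pCore_le_left (h : CoprimeSimpleProduct A B) {M : Subgroup G}
    (hf : ∀ g ∈ M, ∃ a ∈ A ⊓ M, ∃ b ∈ B ⊓ M, g = a * b) {r : ℕ} [hr : Fact r.Prime]
    (hrB : ¬ r ∣ Nat.card B) : (Cfsg.pCore r M).map M.subtype ≤ A := by
  haveI := H19.pCore_normal r M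
  rw [Subgroup.map_le_iff_le_comap]
  exact le_of_isPGroup_normal (H19.pCore_isPGroup r) fun hd => hrB (hd.trans (h.relIndex_dvd hf))

/-- The members of a `pCore` of a prime inside `A` lie in its `p`-part. -/
theorem pCore_le_pPart (h : CoprimeSimpleProduct A B) {M : Subgroup G}
    (hf : ∀ g ∈ M, ∃ a ∈ A ⊓ M, ∃ b ∈ B ⊓ M, g = a * b) {r : ℕ} [hr : Fact r.Prime]
    (hrB : ¬ r ∣ Nat.card B) : (Cfsg.pCore r M).map M.subtype ≤ pPart r A := by
  intro x hx
  obtain ⟨k, hk⟩ := IsPGroup.iff_orderOf.1 ((H19.pCore_isPGroup r (G := M)).map M.subtype) ⟨x, hx⟩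
  rw [Subgroup.orderOf_mk] at hk
  exact mem_pPart h.nilA (h.pCore_le_left hf hrB hx) hk

/-- A prime of the group is one of exactly one factor; a nontrivial core gives such a prime. -/
theorem dvd_or_dvd (h : CoprimeSimpleProduct A B) {M : Subgroup G} {r : ℕ} [hr : Fact r.Prime]
    (hne : Cfsg.pCore r M ≠ ⊥) : r ∣ Nat.card A ∨ r ∣ Nat.card B := by
  obtain ⟨k, hk⟩ := (H19.pCore_isPGroup r (G := M)).exists_card_eq
  have hk0 : k ≠ 0 := fun e => hne (Subgroup.card_eq_one.1 (by rw [hk, e, pow_zero]))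
  refine hr.out.dvd_mul.1 ?_
  rw [card_prod h.prod, h.inf_eq_bot, Subgroup.card_bot, mul_one]
  exact ((dvd_pow_self r hk0).trans (hk ▸ Subgroup.card_subgroup_dvd_card _)).trans
    M.card_subgroup_dvd_card

end CoprimeSimpleProduct

end Cfsg.Agent.H33
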